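import Mathlib
import Cfsg.Agent.Lib.Helper56.TC
import Cfsg.Agent.Lib.Helper56.MYU8.D
set_option autoImplicit false
set_option maxRecDepth 1000000

namespace Cfsg.Agent.Lib.Helper56.MYU8

open Cfsg.Agent.Lib.Helper56.TC Cfsg.Agent.Lib.Helper56.TC.Tabs

theorem cN_0 : allRange (fun x => forceN T.chkName x) 0 514 = true := by decide +kernel
theorem cN_514 : allRange (fun x => forceN T.chkName x) 514 519 = true := by decide +kernel
theorem cN_1033 : allRange (fun x => forceN T.chkName x) 1033 523 = true := by decide +kernel
theorem cN_1556 : allRange (fun x => forceN T.chkName x) 1556 524 = true := by decide +kernel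
theorem cN_2080 : allRange (fun x => forceN T.chkName x) 2080 524 = true := by decide +kernel
theorem cN_2604 : allRange (fun x => forceN T.chkName x) 2604 523 = true := by decide +kernel
theorem cN_3127 : allRange (fun x => forceN T.chkName x) 3127 524 = true := by decide +kernel
theorem cN_3651 : allRange (fun x => forceN T.chkName x) 3651 526 = true := by decide +kernel
theorem cN_4177 : allRange (fun x => forceN T.chkName x) 4177 522 = true := by decide +kernel
theorem cN_4699 : allRange (fun x => forceN T.chkName x) 4699 528 = true := by decide +kernel
theorem cN_5227 : allRange (fun x => forceN T.chkName x) 5227 519 = true := by decide +kernel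
theorem cN_5746 : allRange (fun x => forceN T.chkName x) 5746 526 = true := by decide +kernel

end Cfsg.Agent.Lib.Helper56.MYU8
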