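import Mathlib
import Cfsg.Agent.Lib.Helper56.TC
import Cfsg.Agent.Lib.Helper56.MYU8.D
set_option autoImplicit false
set_option maxRecDepth 1000000

namespace Cfsg.Agent.Lib.Helper56.MYU8

open Cfsg.Agent.Lib.Helper56.TC Cfsg.Agent.Lib.Helper56.TC.Tabs

theorem cN_6272 : allRange (fun x => forceN T.chkName x) 6272 525 = true := by decide +kernel
theorem cN_6797 : allRange (fun x => forceN T.chkName x) 6797 522 = true := by decide +kernel
theorem cN_7319 : allRange (fun x => forceN T.chkName x) 7319 528 = true := by decide +kernel
theorem cN_7847 : allRange (fun x => forceN T.chkName x) 7847 520 = true := by decide +kernel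
theorem cN_8367 : allRange (fun x => forceN T.chkName x) 8367 523 = true := by decide +kernel
theorem cN_8890 : allRange (fun x => forceN T.chkName x) 8890 527 = true := by decide +kernel
theorem cN_9417 : allRange (fun x => forceN T.chkName x) 9417 524 = true := by decide +kernel
theorem cN_9941 : allRange (fun x => forceN T.chkName x) 9941 522 = true := by decide +kernel
theorem cN_10463 : allRange (fun x => forceN T.chkName x) 10463 524 = true := by decide +kernel
theorem cN_10987 : allRange (fun x => forceN T.chkName x) 10987 530 = true := by decide +kernel
theorem cN_11517 : allRange (fun x => forceN T.chkName x) 11517 519 = true := by decide +kernel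
theorem cN_12036 : allRange (fun x => forceN T.chkName x) 12036 526 = true := by decide +kernel

end Cfsg.Agent.Lib.Helper56.MYU8
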