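import Mathlib
import Cfsg.Agent.Lib.Helper56.TC
import Cfsg.Agent.Lib.Helper56.MYU8.D
set_option autoImplicit false
set_option maxRecDepth 1000000

namespace Cfsg.Agent.Lib.Helper56.MYU8

open Cfsg.Agent.Lib.Helper56.TC Cfsg.Agent.Lib.Helper56.TC.Tabs

theorem cV_2144 : allRange (fun x => forceN T.chkV x) 2144 268 = true := by decide +kernel
theorem cV_2412 : allRange (fun x => forceN T.chkV x) 2412 268 = true := by decide +kernel
theorem cV_2680 : allRange (fun x => forceN T.chkV x) 2680 268 = true := by decide +kernel
theorem cV_2948 : allRange (fun x => forceN T.chkV x) 2948 268 = true := by decide +kernel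
theorem cV_3216 : allRange (fun x => forceN T.chkV x) 3216 268 = true := by decide +kernel
theorem cV_3484 : allRange (fun x => forceN T.chkV x) 3484 268 = true := by decide +kernel
theorem cV_3752 : allRange (fun x => forceN T.chkV x) 3752 268 = true := by decide +kernel
theorem cV_4020 : allRange (fun x => forceN T.chkV x) 4020 268 = true := by decide +kernel
theorem cV_4288 : allRange (fun x => forceN T.chkV x) 4288 268 = true := by decide +kernel
theorem cV_4556 : allRange (fun x => forceN T.chkV x) 4556 268 = true := by decide +kernel
theorem cV_4824 : allRange (fun x => forceN T.chkV x) 4824 268 = true := by decide +kernel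
theorem cV_5092 : allRange (fun x => forceN T.chkV x) 5092 268 = true := by decide +kernel

end Cfsg.Agent.Lib.Helper56.MYU8
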