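import Mathlib
import Cfsg.Agent.Lib.Helper56.TC
import Cfsg.Agent.Lib.Helper56.MYU8.D
set_option autoImplicit false
set_option maxRecDepth 1000000

namespace Cfsg.Agent.Lib.Helper56.MYU8

open Cfsg.Agent.Lib.Helper56.TC Cfsg.Agent.Lib.Helper56.TC.Tabs

theorem cV_5360 : allRange (fun x => forceN T.chkV x) 5360 268 = true := by decide +kernel
theorem cV_5628 : allRange (fun x => forceN T.chkV x) 5628 268 = true := by decide +kernel
theorem cV_5896 : allRange (fun x => forceN T.chkV x) 5896 268 = true := by decide +kernel
theorem cV_6164 : allRange (fun x => forceN T.chkV x) 6164 268 = true := by decide +kernel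
theorem cV_6432 : allRange (fun x => forceN T.chkV x) 6432 268 = true := by decide +kernel
theorem cV_6700 : allRange (fun x => forceN T.chkV x) 6700 268 = true := by decide +kernel
theorem cV_6968 : allRange (fun x => forceN T.chkV x) 6968 268 = true := by decide +kernel
theorem cV_7236 : allRange (fun x => forceN T.chkV x) 7236 268 = true := by decide +kernel
theorem cV_7504 : allRange (fun x => forceN T.chkV x) 7504 268 = true := by decide +kernel
theorem cV_7772 : allRange (fun x => forceN T.chkV x) 7772 268 = true := by decide +kernel
theorem cV_8040 : allRange (fun x => forceN T.chkV x) 8040 268 = true := by decide +kernel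
theorem cV_8308 : allRange (fun x => forceN T.chkV x) 8308 268 = true := by decide +kernel

end Cfsg.Agent.Lib.Helper56.MYU8
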