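import Mathlib
import Cfsg.Agent.Lib.Helper56.TC
import Cfsg.Agent.Lib.Helper56.MYU8.D
set_option autoImplicit false
set_option maxRecDepth 1000000

namespace Cfsg.Agent.Lib.Helper56.MYU8

open Cfsg.Agent.Lib.Helper56.TC Cfsg.Agent.Lib.Helper56.TC.Tabs

theorem cV_8576 : allRange (fun x => forceN T.chkV x) 8576 268 = true := by decide +kernel
theorem cV_8844 : allRange (fun x => forceN T.chkV x) 8844 268 = true := by decide +kernel
theorem cV_9112 : allRange (fun x => forceN T.chkV x) 9112 268 = true := by decide +kernel
theorem cV_9380 : allRange (fun x => forceN T.chkV x) 9380 268 = true := by decide +kernel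
theorem cV_9648 : allRange (fun x => forceN T.chkV x) 9648 268 = true := by decide +kernel
theorem cV_9916 : allRange (fun x => forceN T.chkV x) 9916 268 = true := by decide +kernel
theorem cV_10184 : allRange (fun x => forceN T.chkV x) 10184 268 = true := by decide +kernel
theorem cV_10452 : allRange (fun x => forceN T.chkV x) 10452 268 = true := by decide +kernel
theorem cV_10720 : allRange (fun x => forceN T.chkV x) 10720 268 = true := by decide +kernel
theorem cV_10988 : allRange (fun x => forceN T.chkV x) 10988 268 = true := by decide +kernel
theorem cV_11256 : allRange (fun x => forceN T.chkV x) 11256 268 = true := by decide +kernel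
theorem cV_11524 : allRange (fun x => forceN T.chkV x) 11524 268 = true := by decide +kernel

end Cfsg.Agent.Lib.Helper56.MYU8
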