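import Mathlib
import Cfsg.Agent.Lib.Helper56.TC
import Cfsg.Agent.Lib.Helper56.MYU8.D
set_option autoImplicit false
set_option maxRecDepth 1000000

namespace Cfsg.Agent.Lib.Helper56.MYU8

open Cfsg.Agent.Lib.Helper56.TC Cfsg.Agent.Lib.Helper56.TC.Tabs

theorem cV_11792 : allRange (fun x => forceN T.chkV x) 11792 268 = true := by decide +kernel
theorem cV_12060 : allRange (fun x => forceN T.chkV x) 12060 268 = true := by decide +kernel
theorem cV_12328 : allRange (fun x => forceN T.chkV x) 12328 268 = true := by decide +kernel
theorem cV_12596 : allRange (fun x => forceN T.chkV x) 12596 268 = true := by decide +kernel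
theorem cV_12864 : allRange (fun x => forceN T.chkV x) 12864 268 = true := by decide +kernel
theorem cV_13132 : allRange (fun x => forceN T.chkV x) 13132 268 = true := by decide +kernel
theorem cV_13400 : allRange (fun x => forceN T.chkV x) 13400 268 = true := by decide +kernel
theorem cV_13668 : allRange (fun x => forceN T.chkV x) 13668 268 = true := by decide +kernel
theorem cV_13936 : allRange (fun x => forceN T.chkV x) 13936 268 = true := by decide +kernel
theorem cV_14204 : allRange (fun x => forceN T.chkV x) 14204 268 = true := by decide +kernel
theorem cV_14472 : allRange (fun x => forceN T.chkV x) 14472 268 = true := by decide +kernel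
theorem cV_14740 : allRange (fun x => forceN T.chkV x) 14740 268 = true := by decide +kernel

end Cfsg.Agent.Lib.Helper56.MYU8
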