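import Mathlib
import Cfsg.Agent.Lib.Helper56.TC
import Cfsg.Agent.Lib.Helper56.MYU8.D
set_option autoImplicit false
set_option maxRecDepth 1000000

namespace Cfsg.Agent.Lib.Helper56.MYU8

open Cfsg.Agent.Lib.Helper56.TC Cfsg.Agent.Lib.Helper56.TC.Tabs

theorem cV_15008 : allRange (fun x => forceN T.chkV x) 15008 268 = true := by decide +kernel
theorem cV_15276 : allRange (fun x => forceN T.chkV x) 15276 268 = true := by decide +kernel
theorem cV_15544 : allRange (fun x => forceN T.chkV x) 15544 268 = true := by decide +kernel
theorem cV_15812 : allRange (fun x => forceN T.chkV x) 15812 268 = true := by decide +kernel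
theorem cV_16080 : allRange (fun x => forceN T.chkV x) 16080 268 = true := by decide +kernel
theorem cV_16348 : allRange (fun x => forceN T.chkV x) 16348 268 = true := by decide +kernel
theorem cV_16616 : allRange (fun x => forceN T.chkV x) 16616 268 = true := by decide +kernel
theorem cV_16884 : allRange (fun x => forceN T.chkV x) 16884 268 = true := by decide +kernel
theorem cV_17152 : allRange (fun x => forceN T.chkV x) 17152 268 = true := by decide +kernel
theorem cV_17420 : allRange (fun x => forceN T.chkV x) 17420 268 = true := by decide +kernel
theorem cV_17688 : allRange (fun x => forceN T.chkV x) 17688 268 = true := by decide +kernel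
theorem cV_17956 : allRange (fun x => forceN T.chkV x) 17956 268 = true := by decide +kernel

end Cfsg.Agent.Lib.Helper56.MYU8
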