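import Mathlib
import Cfsg.Agent.Lib.Helper56.TC
import Cfsg.Agent.Lib.Helper56.MYU8.D
set_option autoImplicit false
set_option maxRecDepth 1000000

namespace Cfsg.Agent.Lib.Helper56.MYU8

open Cfsg.Agent.Lib.Helper56.TC Cfsg.Agent.Lib.Helper56.TC.Tabs

theorem cV_18224 : allRange (fun x => forceN T.chkV x) 18224 268 = true := by decide +kernel
theorem cV_18492 : allRange (fun x => forceN T.chkV x) 18492 268 = true := by decide +kernel
theorem cV_18760 : allRange (fun x => forceN T.chkV x) 18760 268 = true := by decide +kernel
theorem cV_19028 : allRange (fun x => forceN T.chkV x) 19028 268 = true := by decide +kernel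
theorem cV_19296 : allRange (fun x => forceN T.chkV x) 19296 268 = true := by decide +kernel
theorem cV_19564 : allRange (fun x => forceN T.chkV x) 19564 268 = true := by decide +kernel
theorem cV_19832 : allRange (fun x => forceN T.chkV x) 19832 268 = true := by decide +kernel
theorem cV_20100 : allRange (fun x => forceN T.chkV x) 20100 268 = true := by decide +kernel
theorem cV_20368 : allRange (fun x => forceN T.chkV x) 20368 268 = true := by decide +kernel
theorem cV_20636 : allRange (fun x => forceN T.chkV x) 20636 268 = true := by decide +kernel
theorem cV_20904 : allRange (fun x => forceN T.chkV x) 20904 268 = true := by decide +kernel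
theorem cV_21172 : allRange (fun x => forceN T.chkV x) 21172 268 = true := by decide +kernel

end Cfsg.Agent.Lib.Helper56.MYU8
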