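import Mathlib
import Cfsg.Agent.Lib.Helper56.TC
import Cfsg.Agent.Lib.Helper56.MYU8.D
set_option autoImplicit false
set_option maxRecDepth 1000000

namespace Cfsg.Agent.Lib.Helper56.MYU8

open Cfsg.Agent.Lib.Helper56.TC Cfsg.Agent.Lib.Helper56.TC.Tabs

theorem cV_21440 : allRange (fun x => forceN T.chkV x) 21440 268 = true := by decide +kernel
theorem cV_21708 : allRange (fun x => forceN T.chkV x) 21708 268 = true := by decide +kernel
theorem cV_21976 : allRange (fun x => forceN T.chkV x) 21976 268 = true := by decide +kernel
theorem cV_22244 : allRange (fun x => forceN T.chkV x) 22244 268 = true := by decide +kernel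
theorem cV_22512 : allRange (fun x => forceN T.chkV x) 22512 268 = true := by decide +kernel
theorem cV_22780 : allRange (fun x => forceN T.chkV x) 22780 268 = true := by decide +kernel
theorem cV_23048 : allRange (fun x => forceN T.chkV x) 23048 268 = true := by decide +kernel
theorem cV_23316 : allRange (fun x => forceN T.chkV x) 23316 268 = true := by decide +kernel
theorem cV_23584 : allRange (fun x => forceN T.chkV x) 23584 268 = true := by decide +kernel
theorem cV_23852 : allRange (fun x => forceN T.chkV x) 23852 268 = true := by decide +kernel
theorem cV_24120 : allRange (fun x => forceN T.chkV x) 24120 268 = true := by decide +kernel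
theorem cV_24388 : allRange (fun x => forceN T.chkV x) 24388 268 = true := by decide +kernel

end Cfsg.Agent.Lib.Helper56.MYU8
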