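import Mathlib
import Cfsg.Agent.Lib.Helper56.TC
import Cfsg.Agent.Lib.Helper56.MYU8.D
set_option autoImplicit false
set_option maxRecDepth 1000000

namespace Cfsg.Agent.Lib.Helper56.MYU8

open Cfsg.Agent.Lib.Helper56.TC Cfsg.Agent.Lib.Helper56.TC.Tabs

theorem cV_24656 : allRange (fun x => forceN T.chkV x) 24656 268 = true := by decide +kernel
theorem cV_24924 : allRange (fun x => forceN T.chkV x) 24924 268 = true := by decide +kernel
theorem cV_25192 : allRange (fun x => forceN T.chkV x) 25192 268 = true := by decide +kernel
theorem cV_25460 : allRange (fun x => forceN T.chkV x) 25460 268 = true := by decide +kernel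
theorem cV_25728 : allRange (fun x => forceN T.chkV x) 25728 268 = true := by decide +kernel
theorem cV_25996 : allRange (fun x => forceN T.chkV x) 25996 268 = true := by decide +kernel
theorem cV_26264 : allRange (fun x => forceN T.chkV x) 26264 268 = true := by decide +kernel
theorem cV_26532 : allRange (fun x => forceN T.chkV x) 26532 268 = true := by decide +kernel
theorem cV_26800 : allRange (fun x => forceN T.chkV x) 26800 268 = true := by decide +kernel
theorem cV_27068 : allRange (fun x => forceN T.chkV x) 27068 268 = true := by decide +kernel
theorem cV_27336 : allRange (fun x => forceN T.chkV x) 27336 268 = true := by decide +kernel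
theorem cV_27604 : allRange (fun x => forceN T.chkV x) 27604 268 = true := by decide +kernel

end Cfsg.Agent.Lib.Helper56.MYU8
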