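import Mathlib
import Cfsg.Agent.Lib.Helper56.TC
import Cfsg.Agent.Lib.Helper56.MYU8.D
set_option autoImplicit false
set_option maxRecDepth 1000000

namespace Cfsg.Agent.Lib.Helper56.MYU8

open Cfsg.Agent.Lib.Helper56.TC Cfsg.Agent.Lib.Helper56.TC.Tabs

theorem cN_12562 : allRange (fun x => forceN T.chkName x) 12562 523 = true := by decide +kernel
theorem cN_13085 : allRange (fun x => forceN T.chkName x) 13085 528 = true := by decide +kernel
theorem cN_13613 : allRange (fun x => forceN T.chkName x) 13613 521 = true := by decide +kernel
theorem cN_14134 : allRange (fun x => forceN T.chkName x) 14134 527 = true := by decide +kernel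
theorem cN_14661 : allRange (fun x => forceN T.chkName x) 14661 523 = true := by decide +kernel
theorem cN_15184 : allRange (fun x => forceN T.chkName x) 15184 528 = true := by decide +kernel
theorem cN_15712 : allRange (fun x => forceN T.chkName x) 15712 522 = true := by decide +kernel
theorem cN_16234 : allRange (fun x => forceN T.chkName x) 16234 529 = true := by decide +kernel
theorem cN_16763 : allRange (fun x => forceN T.chkName x) 16763 526 = true := by decide +kernel
theorem cN_17289 : allRange (fun x => forceN T.chkName x) 17289 529 = true := by decide +kernel
theorem cN_17818 : allRange (fun x => forceN T.chkName x) 17818 526 = true := by decide +kernel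
theorem cN_18344 : allRange (fun x => forceN T.chkName x) 18344 528 = true := by decide +kernel

end Cfsg.Agent.Lib.Helper56.MYU8
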