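import Mathlib
import Cfsg.Agent.Lib.Helper56.TC
import Cfsg.Agent.Lib.Helper56.MYU8.D
set_option autoImplicit false
set_option maxRecDepth 1000000

namespace Cfsg.Agent.Lib.Helper56.MYU8

open Cfsg.Agent.Lib.Helper56.TC Cfsg.Agent.Lib.Helper56.TC.Tabs

theorem cN_18872 : allRange (fun x => forceN T.chkName x) 18872 527 = true := by decide +kernel
theorem cN_19399 : allRange (fun x => forceN T.chkName x) 19399 527 = true := by decide +kernel
theorem cN_19926 : allRange (fun x => forceN T.chkName x) 19926 532 = true := by decide +kernel
theorem cN_20458 : allRange (fun x => forceN T.chkName x) 20458 529 = true := by decide +kernel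
theorem cN_20987 : allRange (fun x => forceN T.chkName x) 20987 517 = true := by decide +kernel
theorem cN_21504 : allRange (fun x => forceN T.chkName x) 21504 536 = true := by decide +kernel
theorem cN_22040 : allRange (fun x => forceN T.chkName x) 22040 506 = true := by decide +kernel
theorem cN_22546 : allRange (fun x => forceN T.chkName x) 22546 527 = true := by decide +kernel
theorem cN_23073 : allRange (fun x => forceN T.chkName x) 23073 529 = true := by decide +kernel
theorem cN_23602 : allRange (fun x => forceN T.chkName x) 23602 524 = true := by decide +kernel
theorem cN_24126 : allRange (fun x => forceN T.chkName x) 24126 535 = true := by decide +kernel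
theorem cN_24661 : allRange (fun x => forceN T.chkName x) 24661 519 = true := by decide +kernel

end Cfsg.Agent.Lib.Helper56.MYU8
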