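import Mathlib
import Cfsg.Agent.Lib.Helper56.TC
import Cfsg.Agent.Lib.Helper56.MYU8.D
set_option autoImplicit false
set_option maxRecDepth 1000000

namespace Cfsg.Agent.Lib.Helper56.MYU8

open Cfsg.Agent.Lib.Helper56.TC Cfsg.Agent.Lib.Helper56.TC.Tabs

theorem cN_25180 : allRange (fun x => forceN T.chkName x) 25180 537 = true := by decide +kernel
theorem cN_25717 : allRange (fun x => forceN T.chkName x) 25717 524 = true := by decide +kernel
theorem cN_26241 : allRange (fun x => forceN T.chkName x) 26241 535 = true := by decide +kernel
theorem cN_26776 : allRange (fun x => forceN T.chkName x) 26776 528 = true := by decide +kernel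
theorem cN_27304 : allRange (fun x => forceN T.chkName x) 27304 529 = true := by decide +kernel
theorem cN_27833 : allRange (fun x => forceN T.chkName x) 27833 527 = true := by decide +kernel
theorem cN_28360 : allRange (fun x => forceN T.chkName x) 28360 615 = true := by decide +kernel
theorem cN_28975 : allRange (fun x => forceN T.chkName x) 28975 629 = true := by decide +kernel
theorem cN_29604 : allRange (fun x => forceN T.chkName x) 29604 632 = true := by decide +kernel
theorem cN_30236 : allRange (fun x => forceN T.chkName x) 30236 634 = true := by decide +kernel
theorem cN_30870 : allRange (fun x => forceN T.chkName x) 30870 630 = true := by decide +kernel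
theorem cN_31500 : allRange (fun x => forceN T.chkName x) 31500 642 = true := by decide +kernel

end Cfsg.Agent.Lib.Helper56.MYU8
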