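import Mathlib
import Cfsg.Agent.Lib.Helper56.TC
import Cfsg.Agent.Lib.Helper56.MYU8.D
set_option autoImplicit false
set_option maxRecDepth 1000000

namespace Cfsg.Agent.Lib.Helper56.MYU8

open Cfsg.Agent.Lib.Helper56.TC Cfsg.Agent.Lib.Helper56.TC.Tabs

theorem cN_32142 : allRange (fun x => forceN T.chkName x) 32142 627 = true := by decide +kernel
theorem cN_32769 : allRange (fun x => forceN T.chkName x) 32769 649 = true := by decide +kernel
theorem cN_33418 : allRange (fun x => forceN T.chkName x) 33418 628 = true := by decide +kernel
theorem cN_34046 : allRange (fun x => forceN T.chkName x) 34046 643 = true := by decide +kernel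
theorem cN_34689 : allRange (fun x => forceN T.chkName x) 34689 642 = true := by decide +kernel
theorem cN_35331 : allRange (fun x => forceN T.chkName x) 35331 635 = true := by decide +kernel
theorem cN_35966 : allRange (fun x => forceN T.chkName x) 35966 628 = true := by decide +kernel
theorem cN_36594 : allRange (fun x => forceN T.chkName x) 36594 654 = true := by decide +kernel
theorem cN_37248 : allRange (fun x => forceN T.chkName x) 37248 632 = true := by decide +kernel
theorem cN_37880 : allRange (fun x => forceN T.chkName x) 37880 638 = true := by decide +kernel
theorem cN_38518 : allRange (fun x => forceN T.chkName x) 38518 631 = true := by decide +kernel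
theorem cN_39149 : allRange (fun x => forceN T.chkName x) 39149 659 = true := by decide +kernel

end Cfsg.Agent.Lib.Helper56.MYU8
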