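import Mathlib
import Cfsg.Agent.Lib.Helper56.TC
import Cfsg.Agent.Lib.Helper56.MYU8.D
set_option autoImplicit false
set_option maxRecDepth 1000000

namespace Cfsg.Agent.Lib.Helper56.MYU8

open Cfsg.Agent.Lib.Helper56.TC Cfsg.Agent.Lib.Helper56.TC.Tabs

theorem cN_39808 : allRange (fun x => forceN T.chkName x) 39808 638 = true := by decide +kernel
theorem cN_40446 : allRange (fun x => forceN T.chkName x) 40446 629 = true := by decide +kernel
theorem cN_41075 : allRange (fun x => forceN T.chkName x) 41075 644 = true := by decide +kernel
theorem cN_41719 : allRange (fun x => forceN T.chkName x) 41719 633 = true := by decide +kernel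
theorem cN_42352 : allRange (fun x => forceN T.chkName x) 42352 654 = true := by decide +kernel
theorem cN_43006 : allRange (fun x => forceN T.chkName x) 43006 646 = true := by decide +kernel
theorem cN_43652 : allRange (fun x => forceN T.chkName x) 43652 635 = true := by decide +kernel
theorem cN_44287 : allRange (fun x => forceN T.chkName x) 44287 638 = true := by decide +kernel
theorem cN_44925 : allRange (fun x => forceN T.chkName x) 44925 641 = true := by decide +kernel
theorem cN_45566 : allRange (fun x => forceN T.chkName x) 45566 645 = true := by decide +kernel
theorem cN_46211 : allRange (fun x => forceN T.chkName x) 46211 641 = true := by decide +kernel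
theorem cN_46852 : allRange (fun x => forceN T.chkName x) 46852 660 = true := by decide +kernel

end Cfsg.Agent.Lib.Helper56.MYU8
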