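import Mathlib
import Cfsg.Agent.Lib.Helper56.TC
import Cfsg.Agent.Lib.Helper56.MYU8.D
set_option autoImplicit false
set_option maxRecDepth 1000000

namespace Cfsg.Agent.Lib.Helper56.MYU8

open Cfsg.Agent.Lib.Helper56.TC Cfsg.Agent.Lib.Helper56.TC.Tabs

theorem cN_47512 : allRange (fun x => forceN T.chkName x) 47512 644 = true := by decide +kernel
theorem cN_48156 : allRange (fun x => forceN T.chkName x) 48156 638 = true := by decide +kernel
theorem cN_48794 : allRange (fun x => forceN T.chkName x) 48794 638 = true := by decide +kernel
theorem cN_49432 : allRange (fun x => forceN T.chkName x) 49432 645 = true := by decide +kernel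
theorem cN_50077 : allRange (fun x => forceN T.chkName x) 50077 652 = true := by decide +kernel
theorem cN_50729 : allRange (fun x => forceN T.chkName x) 50729 653 = true := by decide +kernel
theorem cN_51382 : allRange (fun x => forceN T.chkName x) 51382 651 = true := by decide +kernel
theorem cN_52033 : allRange (fun x => forceN T.chkName x) 52033 658 = true := by decide +kernel
theorem cN_52691 : allRange (fun x => forceN T.chkName x) 52691 649 = true := by decide +kernel
theorem cN_53340 : allRange (fun x => forceN T.chkName x) 53340 650 = true := by decide +kernel
theorem cN_53990 : allRange (fun x => forceN T.chkName x) 53990 649 = true := by decide +kernel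
theorem cN_54639 : allRange (fun x => forceN T.chkName x) 54639 645 = true := by decide +kernel

end Cfsg.Agent.Lib.Helper56.MYU8
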