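import Mathlib
import Cfsg.Agent.Lib.Helper56.TC
import Cfsg.Agent.Lib.Helper56.MYU8.D
set_option autoImplicit false
set_option maxRecDepth 1000000

namespace Cfsg.Agent.Lib.Helper56.MYU8

open Cfsg.Agent.Lib.Helper56.TC Cfsg.Agent.Lib.Helper56.TC.Tabs

theorem cN_55284 : allRange (fun x => forceN T.chkName x) 55284 651 = true := by decide +kernel
theorem cN_55935 : allRange (fun x => forceN T.chkName x) 55935 656 = true := by decide +kernel
theorem cN_56591 : allRange (fun x => forceN T.chkName x) 56591 653 = true := by decide +kernel
theorem cN_57244 : allRange (fun x => forceN T.chkName x) 57244 652 = true := by decide +kernel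
theorem cN_57896 : allRange (fun x => forceN T.chkName x) 57896 659 = true := by decide +kernel
theorem cN_58555 : allRange (fun x => forceN T.chkName x) 58555 654 = true := by decide +kernel
theorem cN_59209 : allRange (fun x => forceN T.chkName x) 59209 651 = true := by decide +kernel
theorem cN_59860 : allRange (fun x => forceN T.chkName x) 59860 656 = true := by decide +kernel
theorem cN_60516 : allRange (fun x => forceN T.chkName x) 60516 665 = true := by decide +kernel
theorem cN_61181 : allRange (fun x => forceN T.chkName x) 61181 686 = true := by decide +kernel
theorem cN_61867 : allRange (fun x => forceN T.chkName x) 61867 691 = true := by decide +kernel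
theorem cN_62558 : allRange (fun x => forceN T.chkName x) 62558 685 = true := by decide +kernel

end Cfsg.Agent.Lib.Helper56.MYU8
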