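import Mathlib
import Cfsg.Agent.Lib.Helper56.TC
import Cfsg.Agent.Lib.Helper56.MYU8.D
set_option autoImplicit false
set_option maxRecDepth 1000000

namespace Cfsg.Agent.Lib.Helper56.MYU8

open Cfsg.Agent.Lib.Helper56.TC Cfsg.Agent.Lib.Helper56.TC.Tabs

theorem cN_63243 : allRange (fun x => forceN T.chkName x) 63243 701 = true := by decide +kernel
theorem cN_63944 : allRange (fun x => forceN T.chkName x) 63944 695 = true := by decide +kernel
theorem cN_64639 : allRange (fun x => forceN T.chkName x) 64639 693 = true := by decide +kernel
theorem cN_65332 : allRange (fun x => forceN T.chkName x) 65332 439 = true := by decide +kernel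
theorem cV_0 : allRange (fun x => forceN T.chkV x) 0 268 = true := by decide +kernel
theorem cV_268 : allRange (fun x => forceN T.chkV x) 268 268 = true := by decide +kernel
theorem cV_536 : allRange (fun x => forceN T.chkV x) 536 268 = true := by decide +kernel
theorem cV_804 : allRange (fun x => forceN T.chkV x) 804 268 = true := by decide +kernel
theorem cV_1072 : allRange (fun x => forceN T.chkV x) 1072 268 = true := by decide +kernel
theorem cV_1340 : allRange (fun x => forceN T.chkV x) 1340 268 = true := by decide +kernel
theorem cV_1608 : allRange (fun x => forceN T.chkV x) 1608 268 = true := by decide +kernel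
theorem cV_1876 : allRange (fun x => forceN T.chkV x) 1876 268 = true := by decide +kernel

end Cfsg.Agent.Lib.Helper56.MYU8
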